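import Mathlib
import Cfsg.Prelude.Def_CaseTheorems

/-!
Chains of elementary abelian 2-subgroups of a finite group leading into a normal elementary abelian subgroup.
-/

set_option autoImplicit false
set_option linter.unusedSectionVars false
set_option linter.style.haveILetI false

namespace CfsgLib.H5

open Subgroup

variable {X : Type*} [Group X] [Finite X]

/-- All squares trivial. -/
def Elem (A : Subgroup X) : Prop := ∀ a ∈ A, a ^ 2 = 1

theorem Elem.inv_eq {A : Subgroup X} (h : Elem A) {a : X} (ha : a ∈ A) : a⁻¹ = a := by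
  rw [inv_eq_iff_mul_eq_one, ← pow_two]; exact h a ha

theorem Elem.comm {A : Subgroup X} (h : Elem A) {a b : X} (ha : a ∈ A) (hb : b ∈ A) : a * b = b * a := by
  have h1 := h.inv_eq (A.mul_mem ha hb)
  rw [mul_inv_rev, h.inv_eq ha, h.inv_eq hb] at h1
  exact h1.symm

theorem Elem.mono {A B : Subgroup X} (h : Elem B) (hAB : A ≤ B) : Elem A := fun a ha => h a (hAB ha)

/-- An involution `t` normalizing the elementary abelian group `F`: `|F| ≤ |C_F(t)|²`. -/
theorem card_le_sq (F : Subgroup X) (hF : Elem F) (t : X) (ht : t ^ 2 = 1)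
    (hn : ∀ x ∈ F, t * x * t⁻¹ ∈ F) :
    Nat.card F ≤ Nat.card ↥(F ⊓ centralizer ({t} : Set X)) ^ 2 := by
  classical
  have htinv : t⁻¹ = t := by rw [inv_eq_iff_mul_eq_one, ← pow_two]; exact ht
  let φ : ↥F →* ↥F := MonoidHom.mk' (fun x => ⟨x * (t * x * t⁻¹), F.mul_mem x.2 (hn x x.2)⟩) (by
    rintro ⟨a, ha⟩ ⟨b, hb⟩
    apply Subtype.ext
    show (a * b) * (t * (a * b) * t⁻¹) = (a * (t * a * t⁻¹)) * (b * (t * b * t⁻¹))
    have e1 : t * (a * b) * t⁻¹ = (t * a * t⁻¹) * (t * b * t⁻¹) := by group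
    rw [e1]
    have e2 := hF.comm hb (hn a ha)
    calc a * b * (t * a * t⁻¹ * (t * b * t⁻¹)) = a * (b * (t * a * t⁻¹)) * (t * b * t⁻¹) := by group
      _ = a * ((t * a * t⁻¹) * b) * (t * b * t⁻¹) := by rw [e2]
      _ = _ := by group)
  have hfix : ∀ x : ↥F, φ x = 1 → (x : X) ∈ F ⊓ centralizer ({t} : Set X) := by
    intro x hx
    have h1 : (x : X) * (t * x * t⁻¹) = 1 := congrArg Subtype.val hx
    have h2 : t * x * t⁻¹ = x := by
      have := eq_inv_of_mul_eq_one_right h1
      rw [this, hF.inv_eq x.2]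
    refine mem_inf.2 ⟨x.2, mem_centralizer_singleton_iff.2 ?_⟩
    have := congrArg (· * t) h2
    simpa [mul_assoc] using this.symm
  have hrange : ∀ y : ↥F, y ∈ φ.range → (y : X) ∈ F ⊓ centralizer ({t} : Set X) := by
    rintro y ⟨x, rfl⟩
    refine mem_inf.2 ⟨(φ x).2, mem_centralizer_singleton_iff.2 ?_⟩
    show (x : X) * (t * x * t⁻¹) * t = t * ((x : X) * (t * x * t⁻¹))
    have e2 := hF.comm x.2 (hn x x.2)
    have e3 : (x : X) * (t * x * t⁻¹) = (t * x * t⁻¹) * x := e2
    have h5 : t * t = 1 := by rw [← pow_two]; exact ht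
    calc (x : X) * (t * x * t⁻¹) * t = x * t * x := by group
      _ = (t * t) * x * t⁻¹ * x := by rw [h5, htinv]; group
      _ = t * ((t * x * t⁻¹) * x) := by group
      _ = t * ((x : X) * (t * x * t⁻¹)) := by rw [e3]
  have h1 : Nat.card φ.ker ≤ Nat.card ↥(F ⊓ centralizer ({t} : Set X)) := by
    refine Nat.card_le_card_of_injective
      (fun x : φ.ker => (⟨(x : ↥F), hfix x x.2⟩ : ↥(F ⊓ centralizer ({t} : Set X)))) ?_
    intro a b hab
    have : ((a : ↥F) : X) = ((b : ↥F) : X) := by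
      have h' := congrArg Subtype.val hab
      exact h'
    exact Subtype.ext (Subtype.ext this)
  have h2 : Nat.card φ.range ≤ Nat.card ↥(F ⊓ centralizer ({t} : Set X)) := by
    refine Nat.card_le_card_of_injective
      (fun x : φ.range => (⟨(x : ↥F), hrange x x.2⟩ : ↥(F ⊓ centralizer ({t} : Set X)))) ?_
    intro a b hab
    have : ((a : ↥F) : X) = ((b : ↥F) : X) := by
      have h' := congrArg Subtype.val hab
      exact h'
    exact Subtype.ext (Subtype.ext this)
  have h3 : Nat.card φ.ker * Nat.card φ.range = Nat.card F := by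
    rw [← Subgroup.index_ker]
    exact Subgroup.card_mul_index φ.ker
  rw [← h3, pow_two]
  exact Nat.mul_le_mul h1 h2

/-- The fixed points on `E` of a subgroup `W` of elements normalizing `E`. -/
theorem card_le_pow (E W : Subgroup X) (hE : Elem E) (hEn : ∀ g ∈ W, ∀ x ∈ E, g * x * g⁻¹ ∈ E) (hW : Elem W) :
    ∀ U : Subgroup X, U ≤ W → Nat.card ↥(E ⊓ centralizer (U : Set X)) ≤
      Nat.card ↥(E ⊓ centralizer (W : Set X)) ^ (Nat.card W / Nat.card U) := by
  classical
  have hmain : ∀ (n : ℕ) (U : Subgroup X), U ≤ W → Nat.card W / Nat.card U = n →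
      Nat.card ↥(E ⊓ centralizer (U : Set X)) ≤ Nat.card ↥(E ⊓ centralizer (W : Set X)) ^ n := by
    intro n
    induction n using Nat.strong_induction_on with
    | _ n ih =>
      intro U hU hn
      by_cases hUW : U = W
      · subst hUW
        have : Nat.card U / Nat.card U = 1 := Nat.div_self Nat.card_pos
        rw [this] at hn
        subst hn
        simp
      obtain ⟨t, htW, htU⟩ : ∃ t ∈ W, t ∉ U := by
        by_contra hall
        push Not at hall
        exact hUW (le_antisymm hU hall)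
      obtain ⟨U', hU'⟩ : ∃ U', U' = U ⊔ zpowers t := ⟨_, rfl⟩
      have hU'W : U' ≤ W := by
        rw [hU']; exact sup_le hU ((zpowers_le).2 htW)
      have hUU' : U ≤ U' := by rw [hU']; exact le_sup_left
      have htU' : t ∈ U' := by rw [hU']; exact (le_sup_right : zpowers t ≤ _) (mem_zpowers t)
      -- the divisibility
      obtain ⟨a, ha⟩ := Subgroup.card_dvd_of_le hUU'
      obtain ⟨b, hb⟩ := Subgroup.card_dvd_of_le hU'W
      have hUpos : 0 < Nat.card U := Nat.card_pos
      have hU'pos : 0 < Nat.card U' := Nat.card_pos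
      have ha2 : 2 ≤ a := by
        by_contra hlt
        have hle : a ≤ 1 := by omega
        interval_cases a
        · simp at ha; omega
        · have : U = U' := Subgroup.eq_of_le_of_card_ge hUU' (by omega)
          exact htU (this ▸ htU')
      have hn' : n = a * b := by
        rw [← hn, hb, ha, mul_assoc]
        exact Nat.mul_div_cancel_left _ hUpos
      have hb' : Nat.card W / Nat.card U' = b := by
        rw [hb]; exact Nat.mul_div_cancel_left _ hU'pos
      have hbpos : 0 < b := by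
        rcases Nat.eq_zero_or_pos b with h | h
        · rw [h] at hb; simp at hb
          have : 0 < Nat.card W := Nat.card_pos
          omega
        · exact h
      have hblt : b < n := by
        rw [hn']; nlinarith
      have hIH := ih b hblt U' hU'W hb'
      -- the elementary step
      have hstep := card_le_sq (E ⊓ centralizer (U : Set X)) (hE.mono inf_le_left) t (hW t htW) (by
        intro x hx
        obtain ⟨hxE, hxC⟩ := mem_inf.1 hx
        refine mem_inf.2 ⟨hEn t htW x hxE, mem_centralizer_iff.2 ?_⟩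
        intro u hu
        have e1 := hW.comm (hU hu) htW
        have e2 := mem_centralizer_iff.1 hxC u hu
        calc u * (t * x * t⁻¹) = (u * t) * x * t⁻¹ := by group
          _ = (t * u) * x * t⁻¹ := by rw [e1]
          _ = t * (u * x) * t⁻¹ := by group
          _ = t * (x * u) * t⁻¹ := by rw [e2]
          _ = t * x * (u * t) * t⁻¹ * t⁻¹ := by group
          _ = t * x * (t * u) * t⁻¹ * t⁻¹ := by rw [e1]
          _ = t * x * t⁻¹ * u * (t * t⁻¹) := by
            have hti : t⁻¹ = t := hW.inv_eq htW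
            simp only [hti]
            have e4 : t * t = 1 := by rw [← pow_two]; exact hW t htW
            calc t * x * (t * u) * t * t = t * x * t * u * (t * t) := by group
              _ = t * x * t * u := by rw [e4]; group
              _ = t * x * t * u * (t * t) := by rw [e4]; group
          _ = t * x * t⁻¹ * u := by simp)
      have hle2 : Nat.card ↥((E ⊓ centralizer (U : Set X)) ⊓ centralizer ({t} : Set X)) ≤
          Nat.card ↥(E ⊓ centralizer (U' : Set X)) := by
        apply Subgroup.card_le_of_le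
        intro x hx
        obtain ⟨hx1, hx2⟩ := mem_inf.1 hx
        obtain ⟨hxE, hxC⟩ := mem_inf.1 hx1
        refine mem_inf.2 ⟨hxE, ?_⟩
        have hle3 : U' ≤ centralizer ({x} : Set X) := by
          rw [hU']
          refine sup_le ?_ ((zpowers_le).2 ?_)
          · intro u hu
            exact mem_centralizer_singleton_iff.2 (mem_centralizer_iff.1 hxC u hu)
          · refine mem_centralizer_singleton_iff.2 ?_
            exact ((mem_centralizer_singleton_iff.1 hx2)).symm
        refine mem_centralizer_iff.2 ?_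
        intro u hu
        exact (mem_centralizer_singleton_iff.1 (hle3 hu))
      calc Nat.card ↥(E ⊓ centralizer (U : Set X))
          ≤ Nat.card ↥((E ⊓ centralizer (U : Set X)) ⊓ centralizer ({t} : Set X)) ^ 2 := hstep
        _ ≤ (Nat.card ↥(E ⊓ centralizer (U' : Set X))) ^ 2 := Nat.pow_le_pow_left hle2 2
        _ ≤ (Nat.card ↥(E ⊓ centralizer (W : Set X)) ^ b) ^ 2 := Nat.pow_le_pow_left hIH 2
        _ = Nat.card ↥(E ⊓ centralizer (W : Set X)) ^ (b * 2) := by rw [pow_mul]
        _ ≤ Nat.card ↥(E ⊓ centralizer (W : Set X)) ^ n := by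
          apply Nat.pow_le_pow_right Nat.card_pos
          rw [hn']; nlinarith
  intro U hU
  exact hmain _ U hU rfl

/-- There is an element of `E`, outside of `W`, centralizing `W`, under numeric conditions. -/
theorem exists_central (E W : Subgroup X) (hE : Elem E) (hEn : ∀ g ∈ W, ∀ x ∈ E, g * x * g⁻¹ ∈ E)
    (hW : Elem W) (hWE : ¬ W ≤ E)
    (hnum : ∀ d : ℕ, d ∣ Nat.card W → d < Nat.card W → d ^ (Nat.card W / d) < Nat.card E) :
    ∃ c ∈ E, c ∉ W ∧ ∀ w ∈ W, c * w = w * c := by
  classical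
  by_contra hall
  push Not at hall
  have hle : E ⊓ centralizer (W : Set X) ≤ W ⊓ E := by
    intro x hx
    obtain ⟨hxE, hxC⟩ := mem_inf.1 hx
    refine mem_inf.2 ⟨?_, hxE⟩
    by_contra hxW
    obtain ⟨w, hw, hne⟩ := hall x hxE hxW
    exact hne (mem_centralizer_iff.1 hxC w hw).symm
  have hge : W ⊓ E ≤ E ⊓ centralizer (W : Set X) := by
    intro x hx
    obtain ⟨hxW, hxE⟩ := mem_inf.1 hx
    refine mem_inf.2 ⟨hxE, mem_centralizer_iff.2 ?_⟩
    intro w hw
    exact hW.comm hw hxW
  have heq : E ⊓ centralizer (W : Set X) = W ⊓ E := le_antisymm hle hge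
  have h1 := card_le_pow E W hE hEn hW (W ⊓ E) inf_le_left
  have hF : E ⊓ centralizer (((W ⊓ E : Subgroup X)) : Set X) = E := by
    apply inf_eq_left.2
    intro x hx
    refine mem_centralizer_iff.2 ?_
    intro w hw
    exact hE.comm (mem_inf.1 hw).2 hx
  rw [hF, heq] at h1
  have hd : Nat.card ↥(W ⊓ E) ∣ Nat.card W := Subgroup.card_dvd_of_le inf_le_left
  have hlt : Nat.card ↥(W ⊓ E) < Nat.card W := by
    by_contra hc
    have : W ⊓ E = W := Subgroup.eq_of_le_of_card_ge inf_le_left (not_lt.1 hc)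
    exact hWE (inf_eq_left.1 this)
  have := hnum _ hd hlt
  omega

theorem elem_sup (K : Subgroup X) (hK : Elem K) (c : X) (hc : c ^ 2 = 1) (hcomm : ∀ k ∈ K, c * k = k * c) :
    Elem (K ⊔ zpowers c) ∧ ∀ y ∈ K ⊔ zpowers c, y ∈ K ∨ ∃ k ∈ K, y = k * c := by
  have hN : zpowers c ≤ normalizer (K : Set X) := by
    rw [zpowers_le, mem_normalizer_iff]
    intro k
    have hcinv : c⁻¹ = c := by rw [inv_eq_iff_mul_eq_one, ← pow_two]; exact hc
    constructor
    · intro hk
      rw [hcomm k hk, mul_assoc, mul_inv_cancel, mul_one]; exact hk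
    · intro hk
      have h1 := hcomm _ hk
      have h2 : c * k * c⁻¹ = k := by
        have h3 : c * (c * k * c⁻¹) = (c * k * c⁻¹) * c := h1
        have h4 : (c * k * c⁻¹) * c = c * k := by group
        rw [h4] at h3
        have h5 := mul_left_cancel h3
        exact h5
      rwa [h2] at hk
  have hdesc : ∀ y ∈ K ⊔ zpowers c, y ∈ K ∨ ∃ k ∈ K, y = k * c := by
    intro y hy
    have hy' : y ∈ ((K ⊔ zpowers c : Subgroup X) : Set X) := hy
    rw [coe_mul_of_right_le_normalizer_left K _ hN] at hy'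
    obtain ⟨k, hk, z, hz, rfl⟩ := Set.mem_mul.1 hy'
    obtain ⟨i, rfl⟩ := mem_zpowers_iff.1 hz
    have hord : c ^ i = 1 ∨ c ^ i = c := by
      rcases Int.emod_two_eq_zero_or_one i with h | h
      · left
        obtain ⟨j, rfl⟩ : ∃ j, i = 2 * j := ⟨i / 2, by omega⟩
        rw [zpow_mul]; simp [hc]
      · right
        obtain ⟨j, rfl⟩ : ∃ j, i = 2 * j + 1 := ⟨i / 2, by omega⟩
        rw [zpow_add, zpow_mul]; simp [hc]
    rcases hord with h | h
    · left; rw [h, mul_one]; exact hk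
    · right; exact ⟨k, hk, by rw [h]⟩
  refine ⟨?_, hdesc⟩
  intro y hy
  rcases hdesc y hy with h | ⟨k, hk, rfl⟩
  · exact hK y h
  · rw [pow_two]
    calc k * c * (k * c) = k * (c * k) * c := by group
      _ = k * (k * c) * c := by rw [hcomm k hk]
      _ = (k * k) * (c * c) := by group
      _ = 1 := by
        rw [← pow_two, ← pow_two, hK k hk, hc, one_mul]

theorem card_sup_le (K : Subgroup X) (c : X) (hdesc : ∀ y ∈ K ⊔ zpowers c, y ∈ K ∨ ∃ k ∈ K, y = k * c) :
    Nat.card ↥(K ⊔ zpowers c) ≤ 2 * Nat.card K := by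
  classical
  have hc : c ∈ K ⊔ zpowers c := (le_sup_right : zpowers c ≤ _) (mem_zpowers c)
  let f : ↥K × Bool → ↥(K ⊔ zpowers c) := fun p =>
    if p.2 then ⟨p.1 * c, (K ⊔ zpowers c).mul_mem ((le_sup_left : K ≤ _) p.1.2) hc⟩
    else ⟨p.1, (le_sup_left : K ≤ _) p.1.2⟩
  have hf : Function.Surjective f := by
    rintro ⟨y, hy⟩
    rcases hdesc y hy with h | ⟨k, hk, rfl⟩
    · exact ⟨(⟨y, h⟩, false), by simp [f]⟩
    · exact ⟨(⟨k, hk⟩, true), by simp [f]⟩
  have := Nat.card_le_card_of_surjective f hf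
  rw [Nat.card_prod, Nat.card_eq_fintype_card (α := Bool), Fintype.card_bool] at this
  omega

/-- One step of the chain. -/
theorem exists_next (E W : Subgroup X) (hW : Elem W) (hW2 : IsPGroup 2 ↥W) (hWE : ¬ W ≤ E)
    (c : X) (hcE : c ∈ E) (hcW : c ∉ W) (hc2 : c ^ 2 = 1) (hcc : ∀ w ∈ W, c * w = w * c) :
    ∃ W' : Subgroup X, Elem W' ∧ Nat.card W' = Nat.card W ∧ (∀ a ∈ W, ∀ b ∈ W', a * b = b * a) ∧
      Nat.card ↥(W ⊓ E) < Nat.card ↥(W' ⊓ E) := by
  classical
  haveI : Fact (Nat.Prime 2) := ⟨Nat.prime_two⟩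
  obtain ⟨k, hk⟩ := hW2.exists_card_eq
  have hDW : W ⊓ E ≤ W := inf_le_left
  have hD2 : IsPGroup 2 ↥((W ⊓ E).subgroupOf W) := IsPGroup.to_subgroup hW2 _
  obtain ⟨n, hn⟩ := hD2.exists_card_eq
  have hcardD : Nat.card ↥((W ⊓ E).subgroupOf W) = Nat.card ↥(W ⊓ E) :=
    Nat.card_congr (subgroupOfEquivOfLe hDW).toEquiv
  have hnk : n < k := by
    have h1 : Nat.card ↥(W ⊓ E) < Nat.card W := by
      by_contra hc
      have : W ⊓ E = W := Subgroup.eq_of_le_of_card_ge inf_le_left (not_lt.1 hc)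
      exact hWE (inf_eq_left.1 this)
    rw [← hcardD, hn, hk] at h1
    exact (Nat.pow_lt_pow_iff_right (by norm_num)).1 h1
  obtain ⟨K', hK'card, hK'⟩ := Sylow.exists_subgroup_card_pow_prime_le (G := ↥W) 2
    (n := n) (m := k - 1) (by rw [hk]; exact pow_dvd_pow 2 (Nat.sub_le k 1)) ((W ⊓ E).subgroupOf W) hn (by omega)
  obtain ⟨K, hKdef⟩ : ∃ K, K = K'.map W.subtype := ⟨_, rfl⟩
  have hKW : K ≤ W := by
    rw [hKdef]; rintro _ ⟨x, _, rfl⟩; exact x.2
  have hKcard : Nat.card K = 2 ^ (k - 1) := by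
    rw [hKdef, Subgroup.card_map_of_injective W.subtype_injective]; exact hK'card
  have hDK : W ⊓ E ≤ K := by
    intro x hx
    rw [hKdef]
    exact ⟨⟨x, (mem_inf.1 hx).1⟩, hK' (by rw [mem_subgroupOf]; exact hx), rfl⟩
  have hKe : Elem K := hW.mono hKW
  obtain ⟨hY, hdesc⟩ := elem_sup K hKe c hc2 (fun k hk => hcc k (hKW hk))
  have hc1 := card_sup_le K c hdesc
  have hcK : c ∉ K := fun h => hcW (hKW h)
  have hcS : c ∈ K ⊔ zpowers c := (le_sup_right : zpowers c ≤ _) (mem_zpowers c)
  have hcardS : Nat.card ↥(K ⊔ zpowers c) = Nat.card W := by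
    apply le_antisymm
    · rw [hk]
      refine hc1.trans ?_
      rw [hKcard]
      have : 2 * 2 ^ (k - 1) = 2 ^ k := by
        rw [← pow_succ']; congr 1; omega
      omega
    · obtain ⟨a, ha⟩ := Subgroup.card_dvd_of_le (le_sup_left : K ≤ K ⊔ zpowers c)
      have hpos : 0 < Nat.card ↥(K ⊔ zpowers c) := Nat.card_pos
      have ha2 : 2 ≤ a := by
        by_contra hlt
        have hle : a ≤ 1 := by omega
        interval_cases a
        · simp at ha; omega
        · have hh : K = K ⊔ zpowers c := Subgroup.eq_of_le_of_card_ge le_sup_left (by omega)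
          exact hcK (hh ▸ hcS)
      rw [ha, hk, hKcard]
      have : 2 * 2 ^ (k - 1) = 2 ^ k := by
        rw [← pow_succ']; congr 1; omega
      nlinarith
  refine ⟨K ⊔ zpowers c, hY, hcardS, ?_, ?_⟩
  · intro a ha b hb
    rcases hdesc b hb with h | ⟨k', hk', rfl⟩
    · exact hW.comm ha (hKW h)
    · calc a * (k' * c) = (a * k') * c := by group
        _ = (k' * a) * c := by rw [hW.comm ha (hKW hk')]
        _ = k' * (a * c) := by group
        _ = k' * (c * a) := by rw [hcc a ha]
        _ = _ := by group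
  · have hle : W ⊓ E ≤ (K ⊔ zpowers c) ⊓ E :=
      le_inf (hDK.trans le_sup_left) inf_le_right
    have hne : W ⊓ E ≠ (K ⊔ zpowers c) ⊓ E := by
      intro h
      have : c ∈ W ⊓ E := by rw [h]; exact mem_inf.2 ⟨hcS, hcE⟩
      exact hcW (mem_inf.1 this).1
    by_contra hc
    exact hne (Subgroup.eq_of_le_of_card_ge hle (not_lt.1 hc))

/-- The commuting relation on elementary abelian subgroups of order `q`. -/
def Rel (q : ℕ) (A B : Subgroup X) : Prop :=
  (Elem A ∧ Nat.card A = q) ∧ (Elem B ∧ Nat.card B = q) ∧ ∀ a ∈ A, ∀ b ∈ B, a * b = b * a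

theorem Rel.symm {q : ℕ} {A B : Subgroup X} (h : Rel q A B) : Rel q B A :=
  ⟨h.2.1, h.1, fun a ha b hb => (h.2.2 b hb a ha).symm⟩

/-- Chains reach `E`. -/
theorem chain_to (hX : IsPGroup 2 X) (E : Subgroup X) (q : ℕ)
    (hex : ∀ W : Subgroup X, Elem W → Nat.card W = q → ¬ W ≤ E → ∃ c ∈ E, c ∉ W ∧ ∀ w ∈ W, c * w = w * c)
    (hE : Elem E) :
    ∀ W : Subgroup X, Elem W → Nat.card W = q →
      ∃ W' : Subgroup X, Elem W' ∧ Nat.card W' = q ∧ W' ≤ E ∧ Relation.ReflTransGen (Rel q) W W' := by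
  have hmain : ∀ (n : ℕ) (W : Subgroup X), Elem W → Nat.card W = q → q - Nat.card ↥(W ⊓ E) = n →
      ∃ W' : Subgroup X, Elem W' ∧ Nat.card W' = q ∧ W' ≤ E ∧ Relation.ReflTransGen (Rel q) W W' := by
    intro n
    induction n using Nat.strong_induction_on with
    | _ n ih =>
      intro W hW hWq hn
      by_cases hWE : W ≤ E
      · exact ⟨W, hW, hWq, hWE, Relation.ReflTransGen.refl⟩
      obtain ⟨c, hcE, hcW, hcc⟩ := hex W hW hWq hWE
      obtain ⟨W', hW', hW'c, hcomm, hlt⟩ := exists_next E W hW (IsPGroup.to_subgroup hX W) hWE c hcE hcW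
        (hE c hcE) hcc
      have hle : Nat.card ↥(W' ⊓ E) ≤ q := by
        rw [← hWq, ← hW'c]; exact Subgroup.card_le_of_le inf_le_left
      have hnlt : q - Nat.card ↥(W' ⊓ E) < n := by
        rw [← hn]; omega
      obtain ⟨W'', h1, h2, h3, h4⟩ := ih _ hnlt W' hW' (hW'c.trans hWq) rfl
      refine ⟨W'', h1, h2, h3, Relation.ReflTransGen.head ?_ h4⟩
      exact ⟨⟨hW, hWq⟩, ⟨hW', hW'c.trans hWq⟩, hcomm⟩
  intro W hW hWq
  exact hmain _ W hW hWq rfl

/-- Any two are connected. -/
theorem connected (hX : IsPGroup 2 X) (E : Subgroup X) (q : ℕ)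
    (hex : ∀ W : Subgroup X, Elem W → Nat.card W = q → ¬ W ≤ E → ∃ c ∈ E, c ∉ W ∧ ∀ w ∈ W, c * w = w * c)
    (hE : Elem E) (A B : Subgroup X) (hA : Elem A) (hAq : Nat.card A = q) (hB : Elem B) (hBq : Nat.card B = q) :
    Relation.ReflTransGen (Rel q) A B := by
  obtain ⟨A', h1, h2, h3, h4⟩ := chain_to hX E q hex hE A hA hAq
  obtain ⟨B', h5, h6, h7, h8⟩ := chain_to hX E q hex hE B hB hBq
  have h9 : Relation.ReflTransGen (Rel q) B' B := by
    clear h5 h6 h7
    induction h8 with
    | refl => exact Relation.ReflTransGen.refl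
    | tail _ hbc ih => exact Relation.ReflTransGen.head hbc.symm ih
  refine h4.trans (Relation.ReflTransGen.head ?_ h9)
  exact ⟨⟨h1, h2⟩, ⟨h5, h6⟩, fun a ha b hb => hE.comm (h3 ha) (h7 hb)⟩

theorem numeric_four {d : ℕ} (hd : d ∣ 4) (hlt : d < 4) : d ^ (4 / d) < 8 := by
  have : d ≤ 4 := Nat.le_of_dvd (by norm_num) hd
  interval_cases d <;> simp_all

theorem numeric_eight {d : ℕ} (hd : d ∣ 8) (hlt : d < 8) : d ^ (8 / d) < 32 := by
  have : d ≤ 8 := Nat.le_of_dvd (by norm_num) hd
  interval_cases d <;> simp_all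

theorem elem_of_klein {A : Subgroup X} (h : IsKleinFour A) : Elem A ∧ Nat.card A = 4 := by
  refine ⟨?_, h.card_four⟩
  intro a ha
  have h1 : (⟨a, ha⟩ : ↥A) ^ 2 = 1 := by
    have := Monoid.pow_exponent_eq_one (⟨a, ha⟩ : ↥A)
    rwa [h.exponent_two] at this
  exact congrArg Subtype.val h1

theorem klein_of_elem {A : Subgroup X} (h : Elem A) (hc : Nat.card A = 4) : IsKleinFour A := by
  haveI hf : Fact (Nat.Prime 2) := ⟨Nat.prime_two⟩
  haveI : Nontrivial ↥A := by
    rw [← Finite.one_lt_card_iff_nontrivial]; omega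
  refine ⟨hc, ?_⟩
  rw [Monoid.exponent_eq_prime_iff Nat.prime_two]
  intro g hg
  apply orderOf_eq_prime _ hg
  exact Subtype.ext (h g g.2)

end CfsgLib.H5
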